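import Cfsg.Agent.Lib.StValue.Cox
import Cfsg.Agent.Lib.StChar.Inner
import Cfsg.Agent.Lib.Coprime.Basic
import Cfsg.Agent.Lib.Char.PRegular

/-!
# The Steinberg character at an element of a parabolic subgroup

Let `y ∈ P_J`. The cosets of `P_K` split into `P_J`-orbits indexed by the double cosets `W_J \ W / W_K`; the
fixed points of `y` in an orbit depend only on the letters of `K` which conjugate into `J`. Everything cancels
except the orbit of `w_J⁻¹ w_0`.
-/

set_option autoImplicit false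
set_option linter.unusedSectionVars false

namespace Cfsg.Agent.Lib.StValue.Abs

open Cfsg Cfsg.Agent.Lib.BNPair.Basic Cfsg.Agent.Lib.BNPair.Parabolic Cfsg.Agent.Lib.ChevOrder.BNCount
open Cfsg.Agent.Lib.BNPair.CoxeterExchange Cfsg.Agent.Lib.ChevOrder.Cox Cfsg.Agent.Lib.StChar.Cox
open Cfsg.Agent.Lib.StChar.Gate Cfsg.Agent.Lib.StChar.Inner Cfsg.Agent.Lib.StValue.Cox MulAction

variable {G : Type*} [Group G] {P : Cfsg.BNPair G} {ι : Type*} {e : ι → G} {he : ∀ i, e i ∈ P.S}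

/-- A representative in `N`. -/
noncomputable def rep (d : WW P) : P.N := Quotient.out d

theorem mk_rep (d : WW P) : (QuotientGroup.mk (rep d) : WW P) = d := QuotientGroup.out_eq' d

theorem cell_rep (d : WW P) : cell P (rep d : G) = d := by
  rw [cell_coe, mk_rep]

/-- The orbit of `n` in the cosets of `P_K`. -/
def InO (e : ι → G) (J K : Set ι) (n : G) (c : G ⧸ P.parabolic (e '' K)) : Prop :=
  ∃ x ∈ P.parabolic (e '' J), c = QuotientGroup.mk (x * n)

/-- The number of fixed points of `y` in the orbit of `n`. -/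
noncomputable def aa (P : Cfsg.BNPair G) (e : ι → G) (J K : Set ι) (n y : G) : ℕ :=
  Nat.card {c : G ⧸ P.parabolic (e '' K) // InO e J K n c ∧ y • c = c}

section Main

variable (hs : Setup (ff e he) (LL P))
include hs

/-- The stabilizer in `P_J` of the coset of `n`. -/
theorem stab {J K : Set ι} {n : P.N} (hd : MinL (ff e he) (LL P) J (QuotientGroup.mk n))
    (hd' : MinR (ff e he) (LL P) K (QuotientGroup.mk n)) {x : G} (hx : x ∈ P.parabolic (e '' J))
    (hp : (n : G)⁻¹ * x * n ∈ P.parabolic (e '' K)) :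
    (n : G)⁻¹ * x * n ∈ P.parabolic (e '' (K ∩ Tt (ff e he) J (QuotientGroup.mk n))) ∧
      x ∈ P.parabolic (e '' (Imt (ff e he) J K (QuotientGroup.mk n))) := by
  have hw := (mem_parabolic_iff_cell hs J x).1 hx
  have hv := (mem_parabolic_iff_cell hs K _).1 hp
  have e1 : cell P (x * n) = cell P x * QuotientGroup.mk n := by
    have := cell_mul_of_add hs _ x (n : G) rfl (by
      rw [cell_coe]
      exact hd.len_add hs hw)
    rwa [cell_coe] at this
  have e2 : cell P ((n : G) * ((n : G)⁻¹ * x * n)) =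
      QuotientGroup.mk n * cell P ((n : G)⁻¹ * x * n) := by
    have := cell_mul_of_add hs _ (n : G) ((n : G)⁻¹ * x * n) rfl (by
      rw [cell_coe]
      exact hd'.len_add hs hv)
    rwa [cell_coe] at this
  have e3 : (n : G) * ((n : G)⁻¹ * x * n) = x * n := by group
  rw [e3, e1] at e2
  obtain ⟨h1, h2⟩ := conj_par hs hd hd' _ _ _ hw hv rfl e2
  exact ⟨(mem_parabolic_iff_cell hs _ _).2 h1, (mem_parabolic_iff_cell hs _ _).2 h2⟩

/-- The count only sees the letters which conjugate. -/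
theorem aa_reduce {J K K' : Set ι} (hKK' : K' ⊆ K) {n : P.N}
    (hd : MinL (ff e he) (LL P) J (QuotientGroup.mk n)) (hd' : MinR (ff e he) (LL P) K (QuotientGroup.mk n))
    (hT : K ∩ Tt (ff e he) J (QuotientGroup.mk n) ⊆ K') {y : G} (hy : y ∈ P.parabolic (e '' J)) :
    aa P e J K (n : G) y = aa P e J K' (n : G) y := by
  have hle : P.parabolic (e '' K') ≤ P.parabolic (e '' K) := parabolic_mono (Set.image_mono hKK')
  have hle2 : P.parabolic (e '' (K ∩ Tt (ff e he) J (QuotientGroup.mk n))) ≤ P.parabolic (e '' K') :=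
    parabolic_mono (Set.image_mono hT)
  symm
  refine Nat.card_eq_of_bijective (fun c => ⟨Subgroup.quotientMapOfLE hle c.1, ?_, ?_⟩) ⟨?_, ?_⟩
  · obtain ⟨x, hx, hc⟩ := c.2.1
    exact ⟨x, hx, by rw [hc]; rfl⟩
  · obtain ⟨x, hx, hc⟩ := c.2.1
    have h2 := c.2.2
    rw [hc, smul_mk, QuotientGroup.eq] at h2
    rw [hc]
    show y • (QuotientGroup.mk (x * n) : G ⧸ P.parabolic (e '' K)) = QuotientGroup.mk (x * n)
    rw [smul_mk, QuotientGroup.eq]
    exact hle h2
  · rintro ⟨c, ⟨x, hx, rfl⟩, h⟩ ⟨c', ⟨x', hx', rfl⟩, h'⟩ hcc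
    have h1 : (QuotientGroup.mk (x * n) : G ⧸ P.parabolic (e '' K)) = QuotientGroup.mk (x' * n) :=
      congrArg Subtype.val hcc
    rw [QuotientGroup.eq] at h1
    have e1 : (x * (n : G))⁻¹ * (x' * n) = (n : G)⁻¹ * (x⁻¹ * x') * n := by group
    rw [e1] at h1
    have h2 := (stab hs hd hd' (Subgroup.mul_mem _ (Subgroup.inv_mem _ hx) hx') h1).1
    apply Subtype.ext
    show (QuotientGroup.mk (x * n) : G ⧸ P.parabolic (e '' K')) = QuotientGroup.mk (x' * n)
    rw [QuotientGroup.eq, e1]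
    exact hle2 h2
  · rintro ⟨c, ⟨x, hx, rfl⟩, h⟩
    refine ⟨⟨QuotientGroup.mk (x * n), ⟨x, hx, rfl⟩, ?_⟩, Subtype.ext rfl⟩
    rw [smul_mk, QuotientGroup.eq] at h ⊢
    have e1 : (y * (x * (n : G)))⁻¹ * (x * n) = (n : G)⁻¹ * (x⁻¹ * y⁻¹ * x) * n := by group
    rw [e1] at h ⊢
    have h3 : x⁻¹ * y⁻¹ * x ∈ P.parabolic (e '' J) :=
      Subgroup.mul_mem _ (Subgroup.mul_mem _ (Subgroup.inv_mem _ hx) (Subgroup.inv_mem _ hy)) hx
    exact hle2 (stab hs hd hd' h3 h).1

/-- Every coset lies in the orbit of an element without descents. -/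
theorem type_exists (J K : Set ι) (c : G ⧸ P.parabolic (e '' K)) :
    ∃ d : WW P, MinL (ff e he) (LL P) J d ∧ MinR (ff e he) (LL P) K d ∧ InO e J K (rep d : G) c := by
  obtain ⟨g, rfl⟩ := QuotientGroup.mk_surjective c
  obtain ⟨u, hu, v, hv, hL, hR⟩ := exists_reduced hs J K (cell P g)
  refine ⟨u * cell P g * v, hL, hR, ?_⟩
  set d := u * cell P g * v with hd
  have hrepA : ∀ (K : Set ι) (w : WW P), w ∈ par (ff e he) K → (rep w : G) ∈ P.parabolic (e '' K) := by
    intro K w hw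
    rw [mem_parabolic_iff_cell hs, cell_rep]
    exact hw
  have hw : cell P g = u⁻¹ * d * v⁻¹ := by rw [hd]; group
  let n : P.N := rep u⁻¹ * rep d * rep v⁻¹
  have hn : cell P g = QuotientGroup.mk n := by
    rw [hw]
    simp only [n, QuotientGroup.mk_mul, mk_rep]
  obtain ⟨b, hb, b', hb', hg⟩ := mem_C.1 (mem_C_cell _ hn)
  have hp : b * (rep u⁻¹ : G) ∈ P.parabolic (e '' J) :=
    Subgroup.mul_mem _ (B_le_parabolic _ hb) (hrepA _ _ (Subgroup.inv_mem _ hu))
  have hp' : (rep v⁻¹ : G) * b' ∈ P.parabolic (e '' K) :=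
    Subgroup.mul_mem _ (hrepA _ _ (Subgroup.inv_mem _ hv)) (B_le_parabolic _ hb')
  refine ⟨_, hp, ?_⟩
  rw [QuotientGroup.eq]
  have e1 : g = (b * (rep u⁻¹ : G)) * (rep d : G) * ((rep v⁻¹ : G) * b') := by
    rw [hg]
    simp only [n, Subgroup.coe_mul]
    group
  have e2 : g⁻¹ * ((b * (rep u⁻¹ : G)) * (rep d : G)) = ((rep v⁻¹ : G) * b')⁻¹ := by
    rw [e1]
    group
  rw [e2]
  exact Subgroup.inv_mem _ hp'

/-- The orbit determines the element without descents. -/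
theorem type_unique {J K : Set ι} {c : G ⧸ P.parabolic (e '' K)} {d d' : WW P}
    (h1 : MinL (ff e he) (LL P) J d) (h2 : MinR (ff e he) (LL P) K d) (h3 : InO e J K (rep d : G) c)
    (h1' : MinL (ff e he) (LL P) J d') (h2' : MinR (ff e he) (LL P) K d') (h3' : InO e J K (rep d' : G) c) :
    d = d' := by
  obtain ⟨x, hx, rfl⟩ := h3
  obtain ⟨x', hx', he'⟩ := h3'
  rw [QuotientGroup.eq] at he'
  obtain ⟨v, hv, hvv⟩ := cell_mul_par (he := he) he' (x * (rep d : G))
  have e1 : x * (rep d : G) * ((x * (rep d : G))⁻¹ * (x' * (rep d' : G))) = x' * (rep d' : G) := by group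
  rw [e1] at hvv
  obtain ⟨u, hu, huu⟩ := cell_par_mul (he := he) (Subgroup.mul_mem _ (Subgroup.inv_mem _ hx') hx)
    (rep d : G)
  have e2 : x'⁻¹ * x * (rep d : G) = x'⁻¹ * (x * (rep d : G)) := by group
  rw [cell_rep, e2] at huu
  obtain ⟨u', hu', huu'⟩ := cell_par_mul (he := he) hx' (rep d' : G)
  rw [cell_rep] at huu'
  obtain ⟨u2, hu2, huu2⟩ := cell_par_mul (he := he) hx (rep d : G)
  rw [cell_rep] at huu2
  -- `x n p = x' n'`
  have e3 : (rep d' : G) = x'⁻¹ * (x * (rep d : G)) * ((x * (rep d : G))⁻¹ * (x' * (rep d' : G))) := by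
    group
  obtain ⟨v2, hv2, hvv2⟩ := cell_mul_par (he := he) he' (x'⁻¹ * (x * (rep d : G)))
  rw [← e3, cell_rep, huu] at hvv2
  exact (dc_unique hs _ u v2 d d' hu hv2 rfl h1 h2 h1' h2' (by rw [hvv2, mul_assoc])).symm

variable [Finite G]

open scoped Classical in
/-- The fixed points, by orbits. -/
theorem fix_eq_sum [Fintype (WW P)] (J K : Set ι) (y : G) :
    Nat.card (MulAction.fixedBy (G ⧸ P.parabolic (e '' K)) y) =
      ∑ d : WW P, if MinL (ff e he) (LL P) J d ∧ MinR (ff e he) (LL P) K d then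
        aa P e J K (rep d : G) y else 0 := by
  classical
  have _ : Fintype (G ⧸ P.parabolic (e '' K)) := Fintype.ofFinite _
  let τ : G ⧸ P.parabolic (e '' K) → WW P := fun c => (type_exists hs J K c).choose
  have hτ : ∀ c, MinL (ff e he) (LL P) J (τ c) ∧ MinR (ff e he) (LL P) K (τ c) ∧
      InO e J K (rep (τ c) : G) c := fun c => (type_exists hs J K c).choose_spec
  have h1 : Nat.card (MulAction.fixedBy (G ⧸ P.parabolic (e '' K)) y) =
      (Finset.univ.filter fun c : G ⧸ P.parabolic (e '' K) => y • c = c).card := by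
    rw [Nat.card_eq_fintype_card, Fintype.card_subtype]
    rfl
  rw [h1, Finset.card_eq_sum_card_fiberwise (f := τ) (t := Finset.univ) (fun _ _ => Finset.mem_univ _)]
  refine Finset.sum_congr rfl fun d _ => ?_
  split_ifs with hd
  · rw [aa, Nat.card_eq_fintype_card, Fintype.card_subtype]
    congr 1
    ext c
    simp only [Finset.mem_filter, Finset.mem_univ, true_and]
    constructor
    · rintro ⟨h2, h3⟩
      subst h3
      exact ⟨(hτ c).2.2, h2⟩
    · rintro ⟨h2, h3⟩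
      refine ⟨h3, ?_⟩
      exact type_unique hs (hτ c).1 (hτ c).2.1 (hτ c).2.2 hd.1 hd.2 h2
  · rw [Finset.card_eq_zero]
    refine Finset.filter_eq_empty_iff.2 fun c hc h2 => ?_
    have h3 := (Finset.mem_filter.1 hc).1
    apply hd
    rw [← h2]
    exact ⟨(hτ c).1, (hτ c).2.1⟩

variable [Fintype ι] [DecidableEq ι]

open scoped Classical in
/-- The alternating sum, by double cosets. -/
theorem st_sum [Fintype (WW P)] (J : Set ι) (y : G) :
    ∑ K : Finset ι, (-1 : ℤ) ^ K.card *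
        (Nat.card (MulAction.fixedBy (G ⧸ P.parabolic (e '' (K : Set ι))) y) : ℤ) =
      ∑ d : WW P, if MinL (ff e he) (LL P) J d then
        ∑ K : Finset ι, (if MinR (ff e he) (LL P) (K : Set ι) d then
          (-1 : ℤ) ^ K.card * (aa P e J (K : Set ι) (rep d : G) y : ℤ) else 0) else 0 := by
  have h1 : ∀ K : Finset ι, (-1 : ℤ) ^ K.card *
      (Nat.card (MulAction.fixedBy (G ⧸ P.parabolic (e '' (K : Set ι))) y) : ℤ) =
      ∑ d : WW P, if MinL (ff e he) (LL P) J d then (if MinR (ff e he) (LL P) (K : Set ι) d then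
          (-1 : ℤ) ^ K.card * (aa P e J (K : Set ι) (rep d : G) y : ℤ) else 0) else 0 := by
    intro K
    rw [fix_eq_sum hs J (K : Set ι) y]
    push_cast
    rw [Finset.mul_sum]
    refine Finset.sum_congr rfl fun d _ => ?_
    by_cases h1 : MinL (ff e he) (LL P) J d <;> by_cases h2 : MinR (ff e he) (LL P) (K : Set ι) d <;>
      simp [h1, h2]
  rw [Finset.sum_congr rfl fun K _ => h1 K, Finset.sum_comm]
  refine Finset.sum_congr rfl fun d _ => ?_
  by_cases h2 : MinL (ff e he) (LL P) J d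
  · simp only [h2, if_true]
  · simp [h2]

open scoped Classical in
/-- Cancellation along a letter which does not conjugate. -/
theorem cancel {J : Set ι} {y : G} (hy : y ∈ P.parabolic (e '' J)) {d : WW P}
    (hd : MinL (ff e he) (LL P) J d) {i : ι} (hi : LL P d < LL P (d * ff e he i))
    (hiT : i ∉ Tt (ff e he) J d) :
    ∑ K : Finset ι, (if MinR (ff e he) (LL P) (K : Set ι) d then
      (-1 : ℤ) ^ K.card * (aa P e J (K : Set ι) (rep d : G) y : ℤ) else 0) = 0 := by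
  have hd0 : MinL (ff e he) (LL P) J (QuotientGroup.mk (rep d)) := by rw [mk_rep]; exact hd
  have hred : ∀ K : Finset ι, MinR (ff e he) (LL P) (K : Set ι) d →
      aa P e J (K : Set ι) (rep d : G) y =
        aa P e J ((K : Set ι) ∩ Tt (ff e he) J d) (rep d : G) y := by
    intro K hK
    refine aa_reduce hs Set.inter_subset_left hd0 (by rw [mk_rep]; exact hK) ?_ hy
    rw [mk_rep]
  let g : Finset ι → Finset ι := fun K => if i ∈ K then K.erase i else insert i K
  have hg1 : ∀ K, ((g K : Finset ι) : Set ι) ∩ Tt (ff e he) J d = (K : Set ι) ∩ Tt (ff e he) J d := by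
    intro K
    ext x
    simp only [g, Set.mem_inter_iff, Finset.mem_coe]
    constructor
    · rintro ⟨h1, h2⟩
      have hx : x ≠ i := fun h => hiT (h ▸ h2)
      refine ⟨?_, h2⟩
      split_ifs at h1 with h3
      · exact (Finset.mem_erase.1 h1).2
      · exact (Finset.mem_insert.1 h1).resolve_left hx
    · rintro ⟨h1, h2⟩
      have hx : x ≠ i := fun h => hiT (h ▸ h2)
      refine ⟨?_, h2⟩
      split_ifs with h3
      · exact Finset.mem_erase.2 ⟨hx, h1⟩
      · exact Finset.mem_insert_of_mem h1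
  have hg2 : ∀ K, MinR (ff e he) (LL P) ((g K : Finset ι) : Set ι) d ↔
      MinR (ff e he) (LL P) (K : Set ι) d := by
    intro K
    constructor
    · intro h x hx
      by_cases hxi : x = i
      · rw [hxi]
        exact hi
      · refine h x ?_
        simp only [g, Finset.mem_coe] at hx ⊢
        split_ifs with h3
        · exact Finset.mem_erase.2 ⟨hxi, hx⟩
        · exact Finset.mem_insert_of_mem hx
    · intro h x hx
      by_cases hxi : x = i
      · rw [hxi]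
        exact hi
      · refine h x ?_
        simp only [g, Finset.mem_coe] at hx ⊢
        split_ifs at hx with h3
        · exact (Finset.mem_erase.1 hx).2
        · exact (Finset.mem_insert.1 hx).resolve_left hxi
  have hg3 : ∀ K, (-1 : ℤ) ^ (g K).card = - (-1 : ℤ) ^ K.card := by
    intro K
    simp only [g]
    split_ifs with h3
    · have h4 := Finset.card_erase_add_one h3
      rw [← h4, pow_succ]
      ring
    · rw [Finset.card_insert_of_notMem h3, pow_succ]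
      ring
  have hg4 : ∀ K, g (g K) = K := by
    intro K
    simp only [g]
    by_cases h3 : i ∈ K
    · simp [h3]
    · simp [h3]
  refine Finset.sum_involution (fun K _ => g K) ?_ ?_ (fun _ _ => Finset.mem_univ _) (fun K _ => hg4 K)
  · intro K _
    by_cases hK : MinR (ff e he) (LL P) (K : Set ι) d
    · rw [if_pos hK, if_pos ((hg2 K).2 hK), hg3, hred K hK, hred (g K) ((hg2 K).2 hK), hg1]
      ring
    · rw [if_neg hK, if_neg (fun h => hK ((hg2 K).1 h)), add_zero]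
  · intro K _ _ h
    have : i ∈ g K ↔ i ∈ K := by rw [h]
    simp only [g] at this
    split_ifs at this with h3
    · simp [h3] at this
    · simp [h3] at this

/-- Below the top, nothing is fixed. -/
theorem aa_zero (hinj : Function.Injective (ff e he)) {J : Finset ι} {y : G}
    (hy : y ∈ P.parabolic (e '' (J : Set ι)))
    (hmin : ∀ J' : Finset ι, J'.card < J.card → ∀ g : G, g⁻¹ * y * g ∉ P.parabolic (e '' (J' : Set ι)))
    {d : WW P} (hd : MinL (ff e he) (LL P) (J : Set ι) d) {T : Finset ι}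
    (hT : ∀ i, i ∈ T ↔ LL P d < LL P (d * ff e he i))
    (hTT : ∀ i ∈ T, ∃ j ∈ (J : Set ι), d * ff e he i = ff e he j * d)
    {K : Finset ι} (hK : K ⊂ T) : aa P e (J : Set ι) (K : Set ι) (rep d : G) y = 0 := by
  classical
  have hKR : MinR (ff e he) (LL P) (K : Set ι) d := fun i hi => (hT i).1 (hK.1 hi)
  have hd0 : MinL (ff e he) (LL P) (J : Set ι) (QuotientGroup.mk (rep d)) := by rw [mk_rep]; exact hd
  have hd1 : MinR (ff e he) (LL P) (K : Set ι) (QuotientGroup.mk (rep d)) := by rw [mk_rep]; exact hKR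
  have : IsEmpty {c : G ⧸ P.parabolic (e '' (K : Set ι)) // InO e (J : Set ι) (K : Set ι) (rep d : G) c ∧ y • c = c} := by
    refine ⟨?_⟩
    rintro ⟨c, ⟨x, hx, rfl⟩, hfix⟩
    rw [smul_mk, QuotientGroup.eq] at hfix
    have e1 : (y * (x * ((rep d : P.N) : G)))⁻¹ * (x * (rep d : G)) =
        ((rep d : G)⁻¹ * (x⁻¹ * y * x) * (rep d : G))⁻¹ := by group
    rw [e1] at hfix
    have hfix' := Subgroup.inv_mem _ hfix
    rw [inv_inv] at hfix'
    have hy' : x⁻¹ * y * x ∈ P.parabolic (e '' (J : Set ι)) :=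
      Subgroup.mul_mem _ (Subgroup.mul_mem _ (Subgroup.inv_mem _ hx) hy) hx
    have h2 := (stab hs hd0 hd1 hy' hfix').2
    rw [mk_rep] at h2
    choose! g hgJ hg using hTT
    let J' : Finset ι := J.filter fun j => j ∈ Imt (ff e he) (J : Set ι) (K : Set ι) d
    have hJ' : (J' : Set ι) = Imt (ff e he) (J : Set ι) (K : Set ι) d := by
      ext j
      simp only [J', Finset.coe_filter, Set.mem_ofPred_eq]
      exact ⟨fun h => h.2, fun h => ⟨h.1, h⟩⟩
    have hc1 : J'.card ≤ K.card := by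
      have hsub : J' ⊆ K.image g := by
        intro j hj
        have hj2 : j ∈ (J' : Set ι) := hj
        rw [hJ'] at hj2
        obtain ⟨-, i, hi, hi2⟩ := hj2
        refine Finset.mem_image.2 ⟨i, hi, ?_⟩
        have h3 := hg i (hK.1 hi)
        rw [hi2] at h3
        exact hinj (mul_right_cancel h3).symm
      exact (Finset.card_le_card hsub).trans Finset.card_image_le
    have hc2 : T.card ≤ J.card := by
      refine Finset.card_le_card_of_injOn g (fun i hi => hgJ i hi) ?_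
      intro a ha b hb hab
      have h3 := hg a ha
      have h4 := hg b hb
      have hab' : g a = g b := hab
      rw [hab', ← h4] at h3
      exact hinj (mul_left_cancel h3)
    have hc3 := Finset.card_lt_card hK
    refine hmin J' (by omega) x ?_
    rw [hJ']
    exact h2
  rw [aa, Nat.card_of_isEmpty]

open scoped Classical in
/-- **The value of the Steinberg character.** -/
theorem stChar_eq [Fintype (WW P)] (hinj : Function.Injective (ff e he)) {J : Finset ι} {y : G}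
    (hy : y ∈ P.parabolic (e '' (J : Set ι)))
    (hmin : ∀ J' : Finset ι, J'.card < J.card → ∀ g : G, g⁻¹ * y * g ∉ P.parabolic (e '' (J' : Set ι)))
    {wJ w0 : WW P} (hJ : wJ ∈ par (ff e he) (J : Set ι))
    (hJ2 : ∀ i ∈ (J : Set ι), LL P (wJ * ff e he i) < LL P wJ)
    (h0 : ∀ i, LL P (ff e he i * w0) < LL P w0) (h0' : ∀ i, LL P (w0 * ff e he i) < LL P w0)
    {T : Finset ι} (hT : ∀ i, i ∈ T ↔ LL P (wJ⁻¹ * w0) < LL P (wJ⁻¹ * w0 * ff e he i)) :
    stChar P e y = (-1 : ℂ) ^ T.card * (aa P e (J : Set ι) (T : Set ι) (rep (wJ⁻¹ * w0) : G) y : ℂ) := by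
  set d₀ := wJ⁻¹ * w0 with hd₀
  have hmind : MinL (ff e he) (LL P) (J : Set ι) d₀ := minL_opp hs hJ2 h0
  have hTT : ∀ i ∈ T, ∃ j ∈ (J : Set ι), d₀ * ff e he i = ff e he j * d₀ := fun i hi =>
    asc_opp hs hJ2 hJ h0 h0' ((hT i).1 hi)
  have hS := st_sum hs (J : Set ι) y
  have h1 : ∑ d : WW P, (if MinL (ff e he) (LL P) (J : Set ι) d then
        ∑ K : Finset ι, (if MinR (ff e he) (LL P) (K : Set ι) d then
          (-1 : ℤ) ^ K.card * (aa P e (J : Set ι) (K : Set ι) (rep d : G) y : ℤ) else 0) else 0) =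
      (-1 : ℤ) ^ T.card * (aa P e (J : Set ι) (T : Set ι) (rep d₀ : G) y : ℤ) := by
    rw [Finset.sum_eq_single d₀]
    · rw [if_pos hmind, Finset.sum_eq_single T]
      · rw [if_pos]
        intro i hi
        exact (hT i).1 hi
      · intro K _ hKT
        split_ifs with hK
        · have hsub : K ⊂ T := by
            refine Finset.ssubset_iff_subset_ne.2 ⟨fun i hi => (hT i).2 (hK i hi), hKT⟩
          rw [aa_zero hs hinj hy hmin hmind hT hTT hsub]
          simp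
        · rfl
      · simp
    · intro d _ hd
      split_ifs with hdm
      · by_contra hne
        have hcan : ∀ i, LL P d < LL P (d * ff e he i) → i ∈ Tt (ff e he) (J : Set ι) d := by
          intro i hi
          by_contra hiT
          exact hne (cancel hs hy hdm hi hiT)
        exact hd (opp_unique hs hJ2 hJ h0' hdm hcan)
      · rfl
    · simp
  rw [h1] at hS
  have h2 := congrArg (Int.cast : ℤ → ℂ) hS
  push_cast at h2
  rw [stChar]
  exact h2

end Main

section Torsor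

variable {J T : Set ι} {n y : G} {R : Subgroup G}

/-- The fixed points form a torsor under the centralizer. -/
theorem aa_eq_card [Finite G] (hRJ : R ≤ P.parabolic (e '' J))
    (hN : ∀ u ∈ R, y * u * y⁻¹ ∈ R) (hfree : ∀ u ∈ R, n⁻¹ * u * n ∈ P.parabolic (e '' T) → u = 1)
    (htrans : ∀ x ∈ P.parabolic (e '' J), ∃ u ∈ R, (x * n)⁻¹ * (u * n) ∈ P.parabolic (e '' T))
    {c₀ : G ⧸ P.parabolic (e '' T)} (hc₀ : InO e J T n c₀) (hc₁ : y • c₀ = c₀) :
    aa P e J T n y = Nat.card ↥(R ⊓ Subgroup.centralizer ({y} : Set G)) := by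
  obtain ⟨x₀, hx₀, rfl⟩ := hc₀
  obtain ⟨u₀, hu₀, hu₀'⟩ := htrans x₀ hx₀
  have hmk : ∀ {x : G} {u : G}, (x * n)⁻¹ * (u * n) ∈ P.parabolic (e '' T) →
      (QuotientGroup.mk (x * n) : G ⧸ P.parabolic (e '' T)) = QuotientGroup.mk (u * n) :=
    fun h => QuotientGroup.eq.2 h
  rw [hmk hu₀'] at hc₁
  have hfix₀ : (u₀ * n)⁻¹ * (y * (u₀ * n)) ∈ P.parabolic (e '' T) := by
    rw [smul_mk] at hc₁
    have := QuotientGroup.eq.1 hc₁.symm
    exact this
  have hcomm : ∀ v ∈ Subgroup.centralizer ({y} : Set G), y * v = v * y := by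
    intro v hv
    exact (Subgroup.mem_centralizer_iff.1 hv y rfl)
  symm
  refine Nat.card_eq_of_bijective (fun v => ⟨QuotientGroup.mk ((v : G) * u₀ * n),
    ⟨(v : G) * u₀, Subgroup.mul_mem _ (hRJ v.2.1) (hRJ hu₀), rfl⟩, ?_⟩) ⟨?_, ?_⟩
  · rw [smul_mk]
    refine (QuotientGroup.eq.2 ?_)
    have e1 : (y * ((v : G) * u₀ * n))⁻¹ * ((v : G) * u₀ * n) = ((u₀ * n)⁻¹ * (y * (u₀ * n)))⁻¹ := by
      have : y * (v : G) = (v : G) * y := hcomm _ v.2.2
      calc (y * ((v : G) * u₀ * n))⁻¹ * ((v : G) * u₀ * n)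
          = ((y * (v : G)) * u₀ * n)⁻¹ * ((v : G) * u₀ * n) := by group
        _ = (((v : G) * y) * u₀ * n)⁻¹ * ((v : G) * u₀ * n) := by rw [this]
        _ = _ := by group
    rw [e1]
    exact Subgroup.inv_mem _ hfix₀
  · intro v v' hvv
    have h1 : (QuotientGroup.mk ((v : G) * u₀ * n) : G ⧸ P.parabolic (e '' T)) =
        QuotientGroup.mk ((v' : G) * u₀ * n) := congrArg Subtype.val hvv
    rw [QuotientGroup.eq] at h1
    have e1 : ((v : G) * u₀ * n)⁻¹ * ((v' : G) * u₀ * n) = n⁻¹ * (u₀⁻¹ * ((v : G)⁻¹ * v') * u₀) * n := by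
      group
    rw [e1] at h1
    have h2 := hfree _ (Subgroup.mul_mem _ (Subgroup.mul_mem _ (Subgroup.inv_mem _ hu₀)
      (Subgroup.mul_mem _ (Subgroup.inv_mem _ v.2.1) v'.2.1)) hu₀) h1
    have h3 : (v : G)⁻¹ * v' = 1 := by
      have : (v : G)⁻¹ * v' = u₀ * (u₀⁻¹ * ((v : G)⁻¹ * v') * u₀) * u₀⁻¹ := by group
      rw [this, h2]
      group
    exact Subtype.ext (inv_mul_eq_one.1 h3)
  · rintro ⟨c, ⟨x, hx, rfl⟩, hfix⟩
    obtain ⟨u, hu, hu'⟩ := htrans x hx
    have hee := hmk hu'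
    rw [hee] at hfix
    rw [smul_mk] at hfix
    have hfix₁ : (u * n)⁻¹ * (y * (u * n)) ∈ P.parabolic (e '' T) := QuotientGroup.eq.1 hfix.symm
    set v := u * u₀⁻¹ with hv
    have hvR : v ∈ R := Subgroup.mul_mem _ hu (Subgroup.inv_mem _ hu₀)
    have hr : n⁻¹ * (u₀⁻¹ * (y * v⁻¹ * y⁻¹ * v) * u₀) * n ∈ P.parabolic (e '' T) := by
      have e1 : n⁻¹ * (u₀⁻¹ * (y * v⁻¹ * y⁻¹ * v) * u₀) * n =
          ((u₀ * n)⁻¹ * (y * (u₀ * n))) * ((u * n)⁻¹ * (y * (u * n)))⁻¹ := by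
        rw [hv]
        group
      rw [e1]
      exact Subgroup.mul_mem _ hfix₀ (Subgroup.inv_mem _ hfix₁)
    have hr2 := hfree _ (Subgroup.mul_mem _ (Subgroup.mul_mem _ (Subgroup.inv_mem _ hu₀)
      (Subgroup.mul_mem _ (hN _ (Subgroup.inv_mem _ hvR)) hvR)) hu₀) hr
    have hr3 : y * v⁻¹ * y⁻¹ * v = 1 := by
      have : y * v⁻¹ * y⁻¹ * v = u₀ * (u₀⁻¹ * (y * v⁻¹ * y⁻¹ * v) * u₀) * u₀⁻¹ := by group
      rw [this, hr2]
      group
    have hcv : v ∈ Subgroup.centralizer ({y} : Set G) := by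
      refine Subgroup.mem_centralizer_iff.2 ?_
      intro z hz
      rw [Set.mem_singleton_iff] at hz
      rw [hz]
      have h5 : y * v⁻¹ * y⁻¹ = v⁻¹ := by
        calc y * v⁻¹ * y⁻¹ = y * v⁻¹ * y⁻¹ * v * v⁻¹ := by group
          _ = v⁻¹ := by rw [hr3, one_mul]
      have h6 : y * v⁻¹ = v⁻¹ * y := by
        calc y * v⁻¹ = y * v⁻¹ * y⁻¹ * y := by group
          _ = v⁻¹ * y := by rw [h5]
      calc y * v = v * (v⁻¹ * y) * v := by group
        _ = v * (y * v⁻¹) * v := by rw [h6]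
        _ = v * y := by group
    refine ⟨⟨v, hvR, hcv⟩, Subtype.ext ?_⟩
    show (QuotientGroup.mk (v * u₀ * n) : G ⧸ P.parabolic (e '' T)) = QuotientGroup.mk (x * n)
    rw [hee, hv]
    congr 2
    group

/-- The fixed point exists, by Schur-Zassenhaus. -/
theorem exists_fixed {Γ : Type*} [Group Γ] [Finite Γ] {P₀ : Cfsg.BNPair Γ} {ι₀ : Type*} {e₀ : ι₀ → Γ}
    {J₀ T₀ : Set ι₀} {n₀ y₀ : Γ} {R₀ : Subgroup Γ}
    (p : ℕ) [Fact p.Prime] (hRp : IsPGroup p R₀) (hcop : ¬ p ∣ orderOf y₀)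
    (hy : y₀ ∈ P₀.parabolic (e₀ '' J₀)) (hRJ : R₀ ≤ P₀.parabolic (e₀ '' J₀))
    (hN : ∀ u ∈ R₀, y₀ * u * y₀⁻¹ ∈ R₀) (hN' : ∀ u ∈ R₀, y₀⁻¹ * u * y₀ ∈ R₀)
    (hfree : ∀ u ∈ R₀, n₀⁻¹ * u * n₀ ∈ P₀.parabolic (e₀ '' T₀) → u = 1)
    (htrans : ∀ x ∈ P₀.parabolic (e₀ '' J₀), ∃ u ∈ R₀, (x * n₀)⁻¹ * (u * n₀) ∈ P₀.parabolic (e₀ '' T₀)) :
    ∃ c : Γ ⧸ P₀.parabolic (e₀ '' T₀), InO e₀ J₀ T₀ n₀ c ∧ y₀ • c = c := by
  classical
  have hpp : p.Prime := Fact.out
  let Q : Subgroup Γ := R₀ ⊔ Subgroup.zpowers y₀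
  have hRQ : R₀ ≤ Q := le_sup_left
  have hyQ : y₀ ∈ Q := (le_sup_right : Subgroup.zpowers y₀ ≤ Q) (Subgroup.mem_zpowers y₀)
  have hQJ : Q ≤ P₀.parabolic (e₀ '' J₀) := sup_le hRJ (Subgroup.zpowers_le.2 hy)
  have hynorm : y₀ ∈ Subgroup.normalizer (R₀ : Set Γ) := by
    rw [Subgroup.mem_normalizer_iff]
    intro u
    refine ⟨hN u, fun h => ?_⟩
    have := hN' _ h
    simpa [mul_assoc] using this
  have hzp : Subgroup.zpowers y₀ ≤ Subgroup.normalizer (R₀ : Set Γ) := Subgroup.zpowers_le.2 hynorm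
  have hQnorm : Q ≤ Subgroup.normalizer (R₀ : Set Γ) := sup_le Subgroup.le_normalizer hzp
  have hNn : (R₀.subgroupOf Q).Normal := (Subgroup.normal_subgroupOf_iff_le_normalizer hRQ).2 hQnorm
  let H₁ : Subgroup Q := (Subgroup.zpowers y₀).subgroupOf Q
  let S : Subgroup Q := ((P₀.parabolic (e₀ '' T₀)).comap (MulAut.conj n₀⁻¹).toMonoidHom).subgroupOf Q
  have memS : ∀ x : Q, x ∈ S ↔ n₀⁻¹ * (x : Γ) * n₀ ∈ P₀.parabolic (e₀ '' T₀) := by
    intro x
    simp [S, Subgroup.mem_subgroupOf]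
  have hmul : ∀ x ∈ Q, ∃ r ∈ R₀, ∃ k ∈ Subgroup.zpowers y₀, r * k = x := by
    intro x hx
    have h1 := Subgroup.coe_mul_of_right_le_normalizer_left R₀ (Subgroup.zpowers y₀) hzp
    have h2 : x ∈ ((Q : Subgroup Γ) : Set Γ) := hx
    rw [h1, Set.mem_mul] at h2
    obtain ⟨r, hr, k, hk, he⟩ := h2
    exact ⟨r, hr, k, hk, he⟩
  have hcN : Subgroup.IsComplement' (R₀.subgroupOf Q) H₁ := by
    refine Subgroup.isComplement'_of_disjoint_and_mul_eq_univ ?_ ?_
    · rw [Subgroup.disjoint_def]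
      intro x hx1 hx2
      have h1 : (x : Γ) ∈ R₀ := Subgroup.mem_subgroupOf.1 hx1
      have h2 : (x : Γ) ∈ Subgroup.zpowers y₀ := Subgroup.mem_subgroupOf.1 hx2
      have h3 : orderOf (x : Γ) ∣ orderOf y₀ := orderOf_dvd_of_mem_zpowers h2
      obtain ⟨k, hk⟩ := (IsPGroup.iff_orderOf.1 hRp) ⟨x, h1⟩
      have hk' : orderOf (x : Γ) = p ^ k := by
        rw [← hk]
        exact (Subgroup.orderOf_mk _ _).symm
      have h4 : k = 0 := by
        by_contra h0
        apply hcop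
        refine dvd_trans ?_ h3
        rw [hk']
        exact dvd_pow_self p h0
      rw [h4, pow_zero, orderOf_eq_one_iff] at hk'
      exact Subtype.ext hk'
    · ext x
      simp only [Set.mem_mul, Set.mem_univ, iff_true]
      obtain ⟨r, hr, k, hk, he⟩ := hmul x x.2
      refine ⟨⟨r, hRQ hr⟩, Subgroup.mem_subgroupOf.2 hr, ⟨k, (le_sup_right : Subgroup.zpowers y₀ ≤ Q) hk⟩,
        Subgroup.mem_subgroupOf.2 hk, Subtype.ext he⟩
  have hcS : Subgroup.IsComplement' (R₀.subgroupOf Q) S := by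
    refine Subgroup.isComplement'_of_disjoint_and_mul_eq_univ ?_ ?_
    · rw [Subgroup.disjoint_def]
      intro x hx1 hx2
      exact Subtype.ext (hfree _ (Subgroup.mem_subgroupOf.1 hx1) ((memS x).1 hx2))
    · ext x
      simp only [Set.mem_mul, Set.mem_univ, iff_true]
      obtain ⟨u, hu, hu'⟩ := htrans x (hQJ x.2)
      refine ⟨⟨u, hRQ hu⟩, Subgroup.mem_subgroupOf.2 hu, ⟨u, hRQ hu⟩⁻¹ * x, ?_, by simp⟩
      refine (memS _).2 ?_
      have e1 : n₀⁻¹ * ((((⟨u, hRQ hu⟩ : Q)⁻¹ * x : Q) : Q) : Γ) * n₀ = (((x : Γ) * n₀)⁻¹ * (u * n₀))⁻¹ := by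
        simp only [Subgroup.coe_mul, Subgroup.coe_inv]
        group
      rw [e1]
      exact Subgroup.inv_mem _ hu'
  have hH : Nat.card H₁ = (R₀.subgroupOf Q).index := hcN.symm.index_eq_card.symm
  have hS : Nat.card S = (R₀.subgroupOf Q).index := hcS.symm.index_eq_card.symm
  have hcH₁ : Nat.card H₁ = orderOf y₀ := by
    have hle : Subgroup.zpowers y₀ ≤ Q := le_sup_right
    rw [show Nat.card H₁ = Nat.card (Subgroup.zpowers y₀) from
      Nat.card_congr (Subgroup.subgroupOfEquivOfLe hle).toEquiv, Nat.card_zpowers]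
  have hNp : IsPGroup p (R₀.subgroupOf Q) :=
    hRp.of_equiv (Subgroup.subgroupOfEquivOfLe hRQ).symm
  have hcop2 : (Nat.card (R₀.subgroupOf Q)).Coprime (R₀.subgroupOf Q).index := by
    rw [← hH, hcH₁]
    obtain ⟨k, hk⟩ := IsPGroup.iff_card.1 hNp
    rw [hk]
    exact Nat.Coprime.pow_left _ ((Nat.Prime.coprime_iff_not_dvd hpp).2 hcop)
  have : Group.IsNilpotent (R₀.subgroupOf Q) := hNp.isNilpotent
  have hsolv : Group.IsSolvable (R₀.subgroupOf Q) := inferInstance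
  obtain ⟨g, hg⟩ := Cfsg.Agent.Lib.Coprime.Basic.conj_of_solvable' (R₀.subgroupOf Q) hcop2 H₁ S
    (Or.inl hsolv) hH hS
  have hgy : g * ⟨y₀, hyQ⟩ * g⁻¹ ∈ S := by
    rw [← hg, Cfsg.Agent.Lib.Coprime.SZ.mem_conj_smul]
    have e1 : g⁻¹ * (g * ⟨y₀, hyQ⟩ * g⁻¹) * g = ⟨y₀, hyQ⟩ := by group
    rw [e1]
    exact Subgroup.mem_subgroupOf.2 (Subgroup.mem_zpowers y₀)
  rw [memS] at hgy
  refine ⟨QuotientGroup.mk ((g⁻¹ : Q) * n₀), ⟨((g⁻¹ : Q) : Γ), hQJ (g⁻¹ : Q).2, rfl⟩, ?_⟩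
  rw [smul_mk, QuotientGroup.eq]
  have e2 : (y₀ * (((g⁻¹ : Q) : Γ) * n₀))⁻¹ * (((g⁻¹ : Q) : Γ) * n₀) =
      (n₀⁻¹ * ((g * ⟨y₀, hyQ⟩ * g⁻¹ : Q) : Γ) * n₀)⁻¹ := by
    simp only [Subgroup.coe_mul, Subgroup.coe_inv]
    group
  rw [e2]
  exact Subgroup.inv_mem _ hgy

end Torsor

section Dvd

/-- An irreducible character of full `p`-defect zero has values divisible by the `p`-part of the centralizer. -/
theorem p_part_dvd {Γ : Type*} [Group Γ] [Finite Γ] (p : ℕ) [Fact p.Prime] {χ : Γ → ℂ} (hχ : IsIrrCharacter Γ χ)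
    (h1 : χ 1 = ((p ^ (Nat.card Γ).factorization p : ℕ) : ℂ)) (y : Γ) {N t : ℕ}
    (hy : χ y = (-1 : ℂ) ^ t * (N : ℂ)) :
    p ^ (Nat.card (Subgroup.centralizer ({y} : Set Γ))).factorization p ∣ N := by
  have hp : p.Prime := Fact.out
  classical
  cases nonempty_fintype Γ
  obtain ⟨k, ρ, hρ, rfl⟩ := hχ
  have := hρ
  have hd : Module.finrank ℂ (Fin k → ℂ) = p ^ (Nat.card Γ).factorization p := by
    have h2 : ρ.character 1 = (Module.finrank ℂ (Fin k → ℂ) : ℂ) := Representation.char_one ρ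
    rw [h2] at h1
    exact_mod_cast h1
  have hint := Cfsg.Agent.Lib.Char.Integrality.isIntegral_classSize_mul_character_div_finrank ρ y
  set I := (Subgroup.centralizer ({y} : Set Γ)).index with hI
  have h2 : IsIntegral ℤ (((I * N : ℕ) : ℂ) / ((p ^ (Nat.card Γ).factorization p : ℕ) : ℂ)) := by
    have hε : IsIntegral ℤ ((-1 : ℂ) ^ t) := (isIntegral_one.neg).pow t
    have h3 := hε.mul hint
    have e : (-1 : ℂ) ^ t * ((I : ℂ) * ρ.character y / (Module.finrank ℂ (Fin k → ℂ) : ℂ)) =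
        ((I * N : ℕ) : ℂ) / ((p ^ (Nat.card Γ).factorization p : ℕ) : ℂ) := by
      rw [hy, hd]
      push_cast
      have h4 : ((-1 : ℂ) ^ t) * ((-1 : ℂ) ^ t) = 1 := by
        rw [← mul_pow]
        simp
      field_simp
      linear_combination ((I : ℂ) * (N : ℂ)) * h4
    rwa [e] at h3
  have h3 := Cfsg.Agent.Lib.Char.Integrality.natCast_dvd_of_isIntegral_div
    (pow_ne_zero _ hp.ne_zero) h2
  have hG : Nat.card (Subgroup.centralizer ({y} : Set Γ)) * I = Nat.card Γ := Subgroup.card_mul_index _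
  have hC0 : Nat.card (Subgroup.centralizer ({y} : Set Γ)) ≠ 0 := Nat.card_pos.ne'
  have hI0 : I ≠ 0 := by
    intro h
    rw [h, mul_zero] at hG
    exact Nat.card_pos.ne' hG.symm
  rw [← hG, Nat.factorization_mul hC0 hI0] at h3
  simp only [Finsupp.add_apply, pow_add] at h3
  set a := (Nat.card (Subgroup.centralizer ({y} : Set Γ))).factorization p with ha
  set b := I.factorization p with hb
  have hIe : p ^ b * (I / p ^ b) = I := Nat.ordProj_mul_ordCompl_eq_self I p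
  have hnd : ¬ p ∣ I / p ^ b := Nat.not_dvd_ordCompl hp hI0
  have h4 : p ^ a ∣ (I / p ^ b) * N := by
    have h5 : p ^ b * p ^ a ∣ p ^ b * ((I / p ^ b) * N) := by
      rw [← mul_assoc, hIe, mul_comm (p ^ b)]
      exact h3
    exact Nat.dvd_of_mul_dvd_mul_left (pow_pos hp.pos b) h5
  exact Nat.Coprime.dvd_of_dvd_mul_left (Nat.Coprime.pow_left _ ((Nat.Prime.coprime_iff_not_dvd hp).2 hnd)) h4

end Dvd

section Final

variable [Fintype ι] [DecidableEq ι] [Finite G] [Fintype (WW P)]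

/-- **The value at a `p`-regular element minimal in a parabolic subgroup.** -/
theorem value_of_min (hs : Setup (ff e he) (LL P)) (hinj : Function.Injective (ff e he))
    (p : ℕ) [Fact p.Prime] {J : Finset ι} {y : G} (hy : y ∈ P.parabolic (e '' (J : Set ι)))
    (hmin : ∀ J' : Finset ι, J'.card < J.card → ∀ g : G, g⁻¹ * y * g ∉ P.parabolic (e '' (J' : Set ι)))
    (hcop : ¬ p ∣ orderOf y)
    {wJ w0 : WW P} (hJ : wJ ∈ par (ff e he) (J : Set ι))
    (hJ2 : ∀ i ∈ (J : Set ι), LL P (wJ * ff e he i) < LL P wJ)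
    (h0 : ∀ i, LL P (ff e he i * w0) < LL P w0) (h0' : ∀ i, LL P (w0 * ff e he i) < LL P w0)
    {T : Finset ι} (hT : ∀ i, i ∈ T ↔ LL P (wJ⁻¹ * w0) < LL P (wJ⁻¹ * w0 * ff e he i))
    {R : Subgroup G} (hRp : IsPGroup p R) (hRJ : R ≤ P.parabolic (e '' (J : Set ι)))
    (hN : ∀ x ∈ P.parabolic (e '' (J : Set ι)), ∀ u ∈ R, x * u * x⁻¹ ∈ R)
    (hfree : ∀ u ∈ R, (rep (wJ⁻¹ * w0) : G)⁻¹ * u * (rep (wJ⁻¹ * w0) : G) ∈ P.parabolic (e '' (T : Set ι)) → u = 1)
    (htrans : ∀ x ∈ P.parabolic (e '' (J : Set ι)), ∃ u ∈ R,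
      (x * (rep (wJ⁻¹ * w0) : G))⁻¹ * (u * (rep (wJ⁻¹ * w0) : G)) ∈ P.parabolic (e '' (T : Set ι)))
    (hχ : IsIrrCharacter G (stChar P e))
    (h1 : stChar P e 1 = ((p ^ (Nat.card G).factorization p : ℕ) : ℂ)) :
    stChar P e y = (-1 : ℂ) ^ T.card *
      ((p ^ (Nat.card (Subgroup.centralizer ({y} : Set G))).factorization p : ℕ) : ℂ) := by
  have hp : p.Prime := Fact.out
  have hval := stChar_eq hs hinj hy hmin hJ hJ2 h0 h0' hT
  have hNy : ∀ u ∈ R, y * u * y⁻¹ ∈ R := hN y hy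
  have hNy' : ∀ u ∈ R, y⁻¹ * u * y ∈ R := by
    intro u hu
    have := hN y⁻¹ (Subgroup.inv_mem _ hy) u hu
    simpa using this
  obtain ⟨c, hc, hc'⟩ := exists_fixed (P₀ := P) (e₀ := e) p hRp hcop hy hRJ hNy hNy' hfree htrans
  have hcard := aa_eq_card hRJ hNy hfree htrans hc hc'
  have hdvd := p_part_dvd p hχ h1 y hval
  have hpg : IsPGroup p ↥(R ⊓ Subgroup.centralizer ({y} : Set G)) :=
    hRp.to_le inf_le_left
  obtain ⟨k, hk⟩ := IsPGroup.iff_card.1 hpg
  have hle : R ⊓ Subgroup.centralizer ({y} : Set G) ≤ Subgroup.centralizer ({y} : Set G) := inf_le_right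
  have hd2 : Nat.card ↥(R ⊓ Subgroup.centralizer ({y} : Set G)) ∣
      Nat.card (Subgroup.centralizer ({y} : Set G)) := Subgroup.card_dvd_of_le hle
  have hd3 : aa P e (J : Set ι) (T : Set ι) (rep (wJ⁻¹ * w0) : G) y ∣
      p ^ (Nat.card (Subgroup.centralizer ({y} : Set G))).factorization p := by
    rw [hcard, hk]
    rw [hk] at hd2
    refine pow_dvd_pow _ ?_
    exact (hp.pow_dvd_iff_le_factorization Nat.card_pos.ne').1 hd2
  rw [hval, Nat.dvd_antisymm hd3 hdvd]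

end Final

end Cfsg.Agent.Lib.StValue.Abs
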