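import Cfsg.Agent.Lib.StValue.Abs
import Cfsg.Agent.Lib.StChar.Top

/-!
# The Steinberg character of a Chevalley group at a `p`-regular element

It is `± |C(g)|_p`.
-/

set_option autoImplicit false
set_option linter.unusedSectionVars false

namespace Cfsg.Agent.Lib.StValue.Chev

open Cfsg Cfsg.Lie Cfsg.Agent.Lib.ChevBN.Elem Cfsg.Agent.Lib.ChevBN.Entries Cfsg.Agent.Lib.ChevBN.Table
open Cfsg.Agent.Lib.ChevBN.Collect Cfsg.Agent.Lib.ChevBN.Rel Cfsg.Agent.Lib.ChevBN.Torus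
open Cfsg.Agent.Lib.ChevBN.Monomial Cfsg.Agent.Lib.ChevBN.Core Cfsg.Agent.Lib.ChevBN.Pair
open Cfsg.Agent.Lib.ChevBN.Stmts
open Cfsg.Agent.Lib.ChevTri.Level Cfsg.Agent.Lib.ChevTri.Datum
open Cfsg.Agent.Lib.BNPair.Basic Cfsg.Agent.Lib.BNPair.Parabolic
open Cfsg.Agent.Lib.ChevOrder.BNCount Cfsg.Agent.Lib.ChevOrder.Chev
open Cfsg.Agent.Lib.ChevOrder.Cox Cfsg.Agent.Lib.ChevOrder.Level
open Cfsg.Agent.Lib.StChar.Cox Cfsg.Agent.Lib.StChar.Gate Cfsg.Agent.Lib.StChar.Inner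
open Cfsg.Agent.Lib.StChar.Chev Cfsg.Agent.Lib.StChar.Top
open Cfsg.Agent.Lib.ChevBN.Levi
open Cfsg.Agent.Lib.BNPair.CoxeterExchange
open Cfsg.Agent.Lib.StValue.Cox Cfsg.Agent.Lib.StValue.Abs

section Abstract

variable {G : Type*} [Group G] {P : Cfsg.BNPair G} {ι : Type*} {e : ι → G} {he : ∀ i, e i ∈ P.S}

/-- In `B`: conjugate into `P_T` means conjugate into `B`. -/
theorem conj_mem_B (hs : Setup (ff e he) (LL P)) {T : Set ι} {n : P.N}
    (hd : MinR (ff e he) (LL P) T (QuotientGroup.mk n)) {u : G} (hu : u ∈ P.B)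
    (hp : (n : G)⁻¹ * u * n ∈ P.parabolic (e '' T)) : (n : G)⁻¹ * u * n ∈ P.B := by
  have hv := (mem_parabolic_iff_cell hs T _).1 hp
  have e2 : cell P ((n : G) * ((n : G)⁻¹ * u * n)) = QuotientGroup.mk n * cell P ((n : G)⁻¹ * u * n) := by
    have := cell_mul_of_add hs _ (n : G) ((n : G)⁻¹ * u * n) rfl (by
      rw [cell_coe]
      exact hd.len_add hs hv)
    rwa [cell_coe] at this
  have e3 : (n : G) * ((n : G)⁻¹ * u * n) = u * n := by group
  rw [e3, cell_mul_left hu, cell_coe] at e2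
  exact cell_eq_one_iff.1 (mul_eq_left.1 e2.symm)

end Abstract

variable {D : ChevalleyDatum} {F : Type*} [Field F] {η : ℕ → ℕ → ℤ}
  (hR : Sys D F η) (hT : Tbl D)

include hR hT

/-- The top element sends negative roots to positive roots. -/
theorem pos_image (w : WW (pair hR hT)) (hw : ∀ i, LL (pair hR hT) (fW hR hT i * w) < LL (pair hR hT) w)
    (r : Fin D.nroots) (hr : D.IsNegRoot r) : D.IsPosRoot ((σW hR hT w)⁻¹ r).val := by
  set s := (σW hR hT w)⁻¹ r with hs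
  have hge : ∀ k < D.rank, 0 ≤ cr D s k := by
    intro k hk
    have e : s = σW hR hT w⁻¹ r := by rw [hs, map_inv]
    rw [e, cr_σW hR hT w⁻¹ hk r]
    apply Finset.sum_nonneg
    intro j _
    refine mul_nonneg_of_nonpos_of_nonpos ?_ ?_
    · exact cr_nonpos hT (fun h => hT.not_pos_of_neg hr h) _
    · have := hK hR hT j w (hw j)
      rw [map_inv]
      exact cr_nonpos hT this k
  rcases hT.pos_or_neg s.isLt with hp | hn
  · exact hp
  · exfalso
    obtain ⟨k, hk, hne⟩ := exists_cr_ne hT (hT.pos_of_neg hn)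
    have h1 := hT.coroot_neg s s.isLt k hk
    have h2 := cr_nonpos hT (r := s) (fun h => hT.not_pos_of_neg hn h) k
    have h3 := hge k hk
    apply hne
    rw [h1]
    omega

/-- `W_J` preserves the positive roots outside `Φ_J`. -/
theorem σ_word (hT2 : Tbl2 D) {J : Set (Fin D.rank)} (l : List (Fin D.rank)) (hl : ∀ i ∈ l, i ∈ J)
    (r : Fin D.nroots) (hr : r.val ∈ psiJ D (Fin.val '' J)) :
    ((σW hR hT (pr (fW hR hT) l)) r).val ∈ psiJ D (Fin.val '' J) := by
  induction l with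
  | nil =>
    have e : pr (fW hR hT) [] = 1 := rfl
    rw [e, map_one]
    exact hr
  | cons i l ih =>
    have hl' : ∀ k ∈ l, k ∈ J := fun k hk => hl k (by simp [hk])
    have hi : i ∈ J := hl i (by simp)
    have h1 := ih hl'
    have e : pr (fW hR hT) (i :: l) = fW hR hT i * pr (fW hR hT) l := pr_cons _ _ _
    rw [e, map_mul, σW_fW, Equiv.Perm.mul_apply, Tbl.wPerm_val]
    exact w_psiJ hR hT hT2 (J := Fin.val '' J) (j := i.val) ⟨i, hi, rfl⟩ i.2 h1

theorem σ_par_psi (hT2 : Tbl2 D) {J : Set (Fin D.rank)} {w : WW (pair hR hT)} (hw : w ∈ par (fW hR hT) J)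
    (r : Fin D.nroots) (hr : r.val ∈ psiJ D (Fin.val '' J)) :
    ((σW hR hT w) r).val ∈ psiJ D (Fin.val '' J) := by
  have hs := setupW hR hT
  obtain ⟨l, hl, hlw⟩ := @exists_word (WW (pair hR hT)) (Fin D.rank) _ (fW hR hT) (LL (pair hR hT)) hs J w hw
  rw [← hlw]
  exact σ_word hR hT hT2 l hl r hr

variable {J : Set (Fin D.rank)} {wJ w0 : WW (pair hR hT)} {n : ↥(pair hR hT).N}

/-- The radical goes to the negative unipotent group under `w_0⁻¹ w_J`. -/
theorem conj_rad_neg (hT2 : Tbl2 D) (hn : (QuotientGroup.mk n : WW (pair hR hT)) = wJ⁻¹ * w0)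
    (hJ : wJ ∈ par (fW hR hT) J) (h0 : ∀ i, LL (pair hR hT) (fW hR hT i * w0) < LL (pair hR hT) w0)
    {v : GL D.Idx F} (hv : v ∈ gen hR.toAddRel (psiJ D (Fin.val '' J))) :
    ((n : ↥(D.group F)) : GL D.Idx F)⁻¹ * v * ((n : ↥(D.group F)) : GL D.Idx F) ∈ D.negUnipotent F := by
  refine gen_induction hR.toAddRel (P := fun v => ((n : ↥(D.group F)) : GL D.Idx F)⁻¹ * v *
    ((n : ↥(D.group F)) : GL D.Idx F) ∈ D.negUnipotent F) (by simp) ?_ ?_ hv
  · rintro r hr t
    obtain ⟨κ, -, h⟩ := conj_inv_X hR hT n ⟨r, hr.1.1⟩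
    have h1 := h t
    simp only at h1
    rw [h1, negUnipotent_eq hR.toAddRel]
    refine X_mem_gen _ ?_ _
    have h2 : ((σW hR hT (QuotientGroup.mk n))⁻¹ ⟨r, hr.1.1⟩) =
        (σW hR hT w0)⁻¹ (σW hR hT wJ ⟨r, hr.1.1⟩) := by
      rw [hn, map_mul, map_inv, mul_inv_rev, inv_inv, Equiv.Perm.mul_apply]
    rw [h2]
    have h3 := σ_par_psi hR hT hT2 hJ ⟨r, hr.1.1⟩ hr
    refine neg_image hR hT Set.univ w0 (fun i _ => h0 i) _ h3.1 ⟨h3.1.1, fun i hi hi2 => ?_⟩
    exact absurd ⟨⟨i, hi⟩, Set.mem_univ _, rfl⟩ hi2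
  · intro a b ha hb
    have e : ((n : ↥(D.group F)) : GL D.Idx F)⁻¹ * (a * b) * ((n : ↥(D.group F)) : GL D.Idx F) =
        (((n : ↥(D.group F)) : GL D.Idx F)⁻¹ * a * ((n : ↥(D.group F)) : GL D.Idx F)) *
        (((n : ↥(D.group F)) : GL D.Idx F)⁻¹ * b * ((n : ↥(D.group F)) : GL D.Idx F)) := by group
    rw [e]
    exact Subgroup.mul_mem _ ha hb

/-- The positive part of `Φ_J` stays positive under `w_0⁻¹ w_J`. -/
theorem conj_pos_pos (hn : (QuotientGroup.mk n : WW (pair hR hT)) = wJ⁻¹ * w0)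
    (hJ2 : ∀ i ∈ J, LL (pair hR hT) (wJ * fW hR hT i) < LL (pair hR hT) wJ)
    (h0 : ∀ i, LL (pair hR hT) (fW hR hT i * w0) < LL (pair hR hT) w0)
    {v : GL D.Idx F} (hv : v ∈ gen hR.toAddRel (posJ D (Fin.val '' J))) :
    ((n : ↥(D.group F)) : GL D.Idx F)⁻¹ * v * ((n : ↥(D.group F)) : GL D.Idx F) ∈ D.posUnipotent F := by
  have hs := setupW hR hT
  refine gen_induction hR.toAddRel (P := fun v => ((n : ↥(D.group F)) : GL D.Idx F)⁻¹ * v *
    ((n : ↥(D.group F)) : GL D.Idx F) ∈ D.posUnipotent F) (by simp) ?_ ?_ hv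
  · rintro r ⟨hr, hrJ⟩ t
    obtain ⟨κ, -, h⟩ := conj_inv_X hR hT n ⟨r, hr.1⟩
    have h1 := h t
    simp only at h1
    rw [h1, posUnipotent_eq hR.toAddRel]
    refine X_mem_gen _ ?_ _
    have h2 : ((σW hR hT (QuotientGroup.mk n))⁻¹ ⟨r, hr.1⟩) =
        (σW hR hT w0)⁻¹ (σW hR hT wJ ⟨r, hr.1⟩) := by
      rw [hn, map_mul, map_inv, mul_inv_rev, inv_inv, Equiv.Perm.mul_apply]
    rw [h2]
    refine pos_image hR hT w0 h0 _ ?_
    have h3 : ∀ i ∈ J, LL (pair hR hT) (fW hR hT i * wJ⁻¹) < LL (pair hR hT) wJ⁻¹ := by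
      intro k hk
      have e : fW hR hT k * wJ⁻¹ = (wJ * fW hR hT k)⁻¹ := by rw [mul_inv_rev, inv_f hs]
      rw [e, len_inv hs, len_inv hs]
      exact hJ2 k hk
    have h4 := neg_image hR hT J wJ⁻¹ h3 ⟨r, hr.1⟩ hr hrJ
    rwa [map_inv, inv_inv] at h4
  · intro a b ha hb
    have e : ((n : ↥(D.group F)) : GL D.Idx F)⁻¹ * (a * b) * ((n : ↥(D.group F)) : GL D.Idx F) =
        (((n : ↥(D.group F)) : GL D.Idx F)⁻¹ * a * ((n : ↥(D.group F)) : GL D.Idx F)) *
        (((n : ↥(D.group F)) : GL D.Idx F)⁻¹ * b * ((n : ↥(D.group F)) : GL D.Idx F)) := by group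
    rw [e]
    exact Subgroup.mul_mem _ ha hb

/-- The radical in `G`. -/
noncomputable def radG (D : ChevalleyDatum) (F : Type*) [Field F] (J : Set (Fin D.rank)) : Subgroup ↥(D.group F) :=
  (D.unipotentRadical F (Fin.val '' J)).subgroupOf (D.group F)

theorem mem_PP (K : Finset (Fin D.rank)) (x : ↥(D.group F)) :
    x ∈ (pair hR hT).parabolic (ee hR hT '' (K : Set (Fin D.rank))) ↔
      (x : GL D.Idx F) ∈ D.parabolicSubgroup F (Fin.val '' (K : Set (Fin D.rank))) := by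
  rw [parabolic_pair hR hT, ChevalleyDatum.parabolicIn, Subgroup.mem_subgroupOf, Finset.coe_map]
  rfl

/-- Freeness. -/
theorem hfree_chev (hT2 : Tbl2 D) {T : Set (Fin D.rank)}
    (hn : (QuotientGroup.mk n : WW (pair hR hT)) = wJ⁻¹ * w0)
    (hJ : wJ ∈ par (fW hR hT) J) (h0 : ∀ i, LL (pair hR hT) (fW hR hT i * w0) < LL (pair hR hT) w0)
    (hTm : MinR (fW hR hT) (LL (pair hR hT)) T (QuotientGroup.mk n))
    {u : ↥(D.group F)} (hu : u ∈ radG D F J)
    (hp : (n : ↥(D.group F))⁻¹ * u * n ∈ (pair hR hT).parabolic (ee hR hT '' T)) : u = 1 := by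
  have hu1 : (u : GL D.Idx F) ∈ D.unipotentRadical F (Fin.val '' J) := Subgroup.mem_subgroupOf.1 hu
  have huB : u ∈ (pair hR hT).B := (mem_PB hR hT).2 (U_le_B hR hT (radical_le_U hR hT _ hu1))
  have h2 := conj_mem_B (setupW hR hT) hTm huB hp
  have h3 := (mem_PB hR hT).1 h2
  have hu2 : (u : GL D.Idx F) ∈ gen hR.toAddRel (psiJ D (Fin.val '' J)) := by
    rw [← radical_eq hR hT]
    exact hu1
  have h4 := conj_rad_neg hR hT hT2 hn hJ h0 hu2
  have h5 : (((n : ↥(D.group F))⁻¹ * u * n : ↥(D.group F)) : GL D.Idx F) ∈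
      D.borelSubgroup F ⊓ D.negUnipotent F := ⟨h3, h4⟩
  rw [B_inf_V hR hT, Subgroup.mem_bot] at h5
  have h6 : (n : ↥(D.group F))⁻¹ * u * n = 1 := Subtype.ext h5
  have h7 : u = (n : ↥(D.group F)) * ((n : ↥(D.group F))⁻¹ * u * n) * (n : ↥(D.group F))⁻¹ := by group
  rw [h7, h6]
  group

/-- The generators of the Weyl group are distinct. -/
theorem fW_inj : Function.Injective (fW hR hT) := by
  intro i j h
  have h1 : (QuotientGroup.mk (⟨ee hR hT i, (pair hR hT).subset (ee_mem hR hT i)⟩ : ↥(pair hR hT).N) :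
      WW (pair hR hT)) = QuotientGroup.mk (⟨ee hR hT j, (pair hR hT).subset (ee_mem hR hT j)⟩ : ↥(pair hR hT).N) := h
  rw [mk_eq] at h1
  have h2 : ((ee hR hT i)⁻¹ * ee hR hT j : ↥(D.group F)) ∈ (pair hR hT).N :=
    Subgroup.mul_mem _ (Subgroup.inv_mem _ ((pair hR hT).subset (ee_mem hR hT i)))
      ((pair hR hT).subset (ee_mem hR hT j))
  have h3 : ((A hR i)⁻¹ * A hR j : GL D.Idx F) ∈ D.borelSubgroup F ⊓ D.monomialSubgroup F :=
    ⟨(mem_PB hR hT).1 h1, (mem_PN hR hT).1 h2⟩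
  rw [B_inf_N hR hT] at h3
  exact Fin.ext (A_inj_mod hR hT i.2 j.2 h3)

/-- Transitivity on the orbit. -/
theorem htrans_chev (hT2 : Tbl2 D) {J T : Finset (Fin D.rank)} {wJ w0 : WW (pair hR hT)} {n : ↥(pair hR hT).N}
    (hn : (QuotientGroup.mk n : WW (pair hR hT)) = wJ⁻¹ * w0)
    (hJ2 : ∀ i ∈ (J : Set (Fin D.rank)), LL (pair hR hT) (wJ * fW hR hT i) < LL (pair hR hT) wJ)
    (h0 : ∀ i, LL (pair hR hT) (fW hR hT i * w0) < LL (pair hR hT) w0)
    (hsurj : ∀ j ∈ J, ∃ i ∈ T, (QuotientGroup.mk n : WW (pair hR hT)) * fW hR hT i =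
      fW hR hT j * QuotientGroup.mk n)
    {x : ↥(D.group F)} (hx : x ∈ (pair hR hT).parabolic (ee hR hT '' (J : Set (Fin D.rank)))) :
    ∃ u ∈ radG D F (J : Set (Fin D.rank)), (x * n)⁻¹ * (u * n) ∈
      (pair hR hT).parabolic (ee hR hT '' (T : Set (Fin D.rank))) := by
  have hs := setupW hR hT
  set PJ := (pair hR hT).parabolic (ee hR hT '' (J : Set (Fin D.rank))) with hPJ
  set PT := (pair hR hT).parabolic (ee hR hT '' (T : Set (Fin D.rank))) with hPT
  let Lp : Subgroup ↥(D.group F) :=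
    { carrier := {z | z ∈ PJ ∧ (n : ↥(D.group F))⁻¹ * z * n ∈ PT}
      mul_mem' := by
        rintro a b ⟨h1, h2⟩ ⟨h3, h4⟩
        refine ⟨Subgroup.mul_mem _ h1 h3, ?_⟩
        have e : (n : ↥(D.group F))⁻¹ * (a * b) * n =
            ((n : ↥(D.group F))⁻¹ * a * n) * ((n : ↥(D.group F))⁻¹ * b * n) := by group
        rw [e]
        exact Subgroup.mul_mem _ h2 h4
      one_mem' := by
        refine ⟨Subgroup.one_mem _, ?_⟩
        have e : (n : ↥(D.group F))⁻¹ * 1 * n = 1 := by group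
        rw [e]
        exact Subgroup.one_mem _
      inv_mem' := by
        rintro a ⟨h1, h2⟩
        refine ⟨Subgroup.inv_mem _ h1, ?_⟩
        have e : (n : ↥(D.group F))⁻¹ * a⁻¹ * n = ((n : ↥(D.group F))⁻¹ * a * n)⁻¹ := by group
        rw [e]
        exact Subgroup.inv_mem _ h2 }
  have hnN : ((n : ↥(D.group F)) : GL D.Idx F) ∈ D.monomialSubgroup F := (mem_PN hR hT).1 n.2
  have hA : PJ ≤ radG D F (J : Set (Fin D.rank)) ⊔ Lp := by
    refine sup_le ?_ ?_
    · intro b hb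
      have hb1 := (mem_PB hR hT).1 hb
      obtain ⟨u, hu, h, hh, hbe⟩ := (mem_B_iff hR hT).1 hb1
      obtain ⟨y, hy, v, hv, huv⟩ := U_factor hR hT hT2 (Fin.val '' (J : Set (Fin D.rank))) hu
      have hyU := radical_le_U hR hT _ hy
      have hvU : v ∈ D.posUnipotent F := by
        rw [posUnipotent_eq hR.toAddRel]
        exact gen_mono _ (fun s hs => hs.1) hv
      have hyG := U_le_G hR hT hyU
      have hvG := U_le_G hR hT hvU
      have hhG := H_le_G hR hT hh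
      have hbb : b = (⟨y, hyG⟩ : ↥(D.group F)) * ((⟨v, hvG⟩ : ↥(D.group F)) * ⟨h, hhG⟩) := by
        apply Subtype.ext
        show (b : GL D.Idx F) = y * (v * h)
        rw [hbe, huv, mul_assoc]
      rw [hbb]
      refine Subgroup.mul_mem _ (Subgroup.mem_sup_left (Subgroup.mem_subgroupOf.2 hy))
        (Subgroup.mem_sup_right (Subgroup.mul_mem _ ?_ ?_))
      · refine ⟨(mem_PP hR hT J _).2 (U_le_parabolic hR hT _ hvU), (mem_PP hR hT T _).2 ?_⟩
        exact U_le_parabolic hR hT _ (conj_pos_pos hR hT hn hJ2 h0 hv)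
      · refine ⟨(mem_PP hR hT J _).2 (H_le_parabolic hR hT _ hh), (mem_PP hR hT T _).2 ?_⟩
        refine H_le_parabolic hR hT _ ?_
        have := H_norm_N hR hT (Subgroup.inv_mem _ hnN) hh
        simpa using this
    · rw [Subgroup.closure_le]
      rintro _ ⟨j, hj, rfl⟩
      refine Subgroup.mem_sup_right ⟨closure_le_parabolic _ (Subgroup.subset_closure ⟨j, hj, rfl⟩), ?_⟩
      obtain ⟨i, hiT, hi⟩ := hsurj j hj
      let m : ↥(pair hR hT).N := n⁻¹ * ⟨ee hR hT j, (pair hR hT).subset (ee_mem hR hT j)⟩ * n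
      have hm : ((m : ↥(pair hR hT).N) : ↥(D.group F)) = (n : ↥(D.group F))⁻¹ * ee hR hT j * n := rfl
      show (n : ↥(D.group F))⁻¹ * ee hR hT j * n ∈ PT
      rw [← hm, hPT, mem_parabolic_iff_cell (he := ee_mem hR hT) hs, cell_coe]
      have e1 : (QuotientGroup.mk m : WW (pair hR hT)) =
          (QuotientGroup.mk n)⁻¹ * fW hR hT j * QuotientGroup.mk n := rfl
      have e2 : (QuotientGroup.mk m : WW (pair hR hT)) = fW hR hT i := by
        rw [e1, mul_assoc, ← hi]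
        group
      rw [e2]
      exact f_mem_par hiT
  have hnorm : Lp ≤ Subgroup.normalizer (radG D F (J : Set (Fin D.rank)) : Set ↥(D.group F)) := by
    intro l hl
    rw [Subgroup.mem_normalizer_iff]
    intro u
    have h1 := parabolic_le_norm hR hT hT2 (Fin.val '' (J : Set (Fin D.rank))) ((mem_PP hR hT J l).1 hl.1)
    have h2 := (Subgroup.mem_normalizer_iff.1 h1 (u : GL D.Idx F))
    exact h2
  have h1 := Subgroup.coe_mul_of_right_le_normalizer_left (radG D F (J : Set (Fin D.rank))) Lp hnorm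
  have h2 : x ∈ ((radG D F (J : Set (Fin D.rank)) ⊔ Lp : Subgroup ↥(D.group F)) : Set ↥(D.group F)) := hA hx
  rw [h1, Set.mem_mul] at h2
  obtain ⟨u, hu, l, hl, rfl⟩ := h2
  refine ⟨u, hu, ?_⟩
  have e : (u * l * (n : ↥(D.group F)))⁻¹ * (u * (n : ↥(D.group F))) =
      ((n : ↥(D.group F))⁻¹ * l * n)⁻¹ := by group
  rw [e]
  exact Subgroup.inv_mem _ hl.2

/-- **The value of the Steinberg character at a `p`-regular element.** -/
theorem steinberg_value [Fintype F] (hT2 : Tbl2 D) (p : ℕ) [Fact p.Prime] [CharP F p] (g : ↥(D.group F))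
    (hg : ¬ p ∣ orderOf g) :
    D.steinbergCharacter F g =
        ((p ^ (Nat.card ↥(Subgroup.centralizer ({g} : Set ↥(D.group F)))).factorization p : ℕ) : ℂ) ∨
      D.steinbergCharacter F g =
        -((p ^ (Nat.card ↥(Subgroup.centralizer ({g} : Set ↥(D.group F)))).factorization p : ℕ) : ℂ) := by
  classical
  have hp : p.Prime := Fact.out
  have hs := setupW hR hT
  have _ : Fintype (WW (pair hR hT)) := Fintype.ofFinite _
  -- the minimal parabolic
  let Sset : Finset (Finset (Fin D.rank)) := Finset.univ.filter fun J => ∃ x : ↥(D.group F), x⁻¹ * g * x ∈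
    (pair hR hT).parabolic (ee hR hT '' (J : Set (Fin D.rank)))
  have hne : Sset.Nonempty := by
    refine ⟨Finset.univ, Finset.mem_filter.2 ⟨Finset.mem_univ _, 1, ?_⟩⟩
    rw [parabolic_univ hs]
    exact Subgroup.mem_top _
  obtain ⟨J, hJS, hJmin⟩ := Sset.exists_min_image Finset.card hne
  obtain ⟨x, hx⟩ := (Finset.mem_filter.1 hJS).2
  set y := x⁻¹ * g * x with hy
  have hmin : ∀ J' : Finset (Fin D.rank), J'.card < J.card → ∀ z : ↥(D.group F), z⁻¹ * y * z ∉
      (pair hR hT).parabolic (ee hR hT '' (J' : Set (Fin D.rank))) := by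
    intro J' hc z hz
    have hJ' : J' ∈ Sset := by
      refine Finset.mem_filter.2 ⟨Finset.mem_univ _, x * z, ?_⟩
      have e : (x * z)⁻¹ * g * (x * z) = z⁻¹ * y * z := by
        rw [hy]
        group
      rw [e]
      exact hz
    have := hJmin J' hJ'
    omega
  have hconj : y = x⁻¹ * g * (x⁻¹)⁻¹ := by rw [hy, inv_inv]
  have hcop : ¬ p ∣ orderOf y := by
    have e : orderOf y = orderOf g := by
      rw [hconj, ← MulAut.conj_apply, MulEquiv.orderOf_eq]
    rwa [e]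
  have hχ : IsIrrCharacter ↥(D.group F) (stChar (pair hR hT) (ee hR hT)) := stChar_isIrr hs
  have h1 : stChar (pair hR hT) (ee hR hT) 1 = ((p ^ (Nat.card ↥(D.group F)).factorization p : ℕ) : ℂ) := by
    rw [← steinberg_eq hR hT, steinberg_one hR hT hT2, pow_factorization hR hT p]
    push_cast
    rfl
  obtain ⟨wJ, hwJ, hJ1, hJ2⟩ := exists_top hs (J : Set (Fin D.rank))
  obtain ⟨w0, -, h01, h02⟩ := exists_top hs (Set.univ : Set (Fin D.rank))
  have h01' : ∀ i, LL (pair hR hT) (fW hR hT i * w0) < LL (pair hR hT) w0 := fun i => h01 i (Set.mem_univ _)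
  have h02' : ∀ i, LL (pair hR hT) (w0 * fW hR hT i) < LL (pair hR hT) w0 := fun i => h02 i (Set.mem_univ _)
  let T : Finset (Fin D.rank) := Finset.univ.filter fun i =>
    LL (pair hR hT) (wJ⁻¹ * w0) < LL (pair hR hT) (wJ⁻¹ * w0 * fW hR hT i)
  have hT' : ∀ i, i ∈ T ↔ LL (pair hR hT) (wJ⁻¹ * w0) < LL (pair hR hT) (wJ⁻¹ * w0 * fW hR hT i) := by
    intro i
    simp [T]
  set n : ↥(pair hR hT).N := rep (wJ⁻¹ * w0) with hndef
  have hn : (QuotientGroup.mk n : WW (pair hR hT)) = wJ⁻¹ * w0 := mk_rep _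
  have hTm : MinR (fW hR hT) (LL (pair hR hT)) (T : Set (Fin D.rank)) (QuotientGroup.mk n) := by
    intro i hi
    rw [hn]
    exact (hT' i).1 hi
  have hsurj : ∀ j ∈ J, ∃ i ∈ T, (QuotientGroup.mk n : WW (pair hR hT)) * fW hR hT i =
      fW hR hT j * QuotientGroup.mk n := by
    intro j hj
    obtain ⟨i, hi, hi2⟩ := opp_surj hs hwJ hJ1 hJ2 h01' h02' (Finset.mem_coe.2 hj)
    exact ⟨i, (hT' i).2 hi, by rw [hn]; exact hi2⟩
  have hUp : IsPGroup p ↥(D.posUnipotent F) := by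
    obtain ⟨k, -, hk⟩ := FiniteField.card F p
    refine IsPGroup.of_card (n := k * (D.nroots / 2)) ?_
    have h2 := Cfsg.Agent.Lib.ChevBN.Stmts.card_U (F := F) hR hT
    rw [h2, hk, pow_mul]
  have hRp : IsPGroup p ↥(radG D F (J : Set (Fin D.rank))) := by
    have h2 : IsPGroup p ↥(D.unipotentRadical F (Fin.val '' (J : Set (Fin D.rank)))) :=
      hUp.to_le (radical_le_U hR hT _)
    exact h2.of_equiv (Subgroup.subgroupOfEquivOfLe (le_trans (radical_le_U hR hT _) (U_le_G hR hT))).symm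
  have hRJ : radG D F (J : Set (Fin D.rank)) ≤ (pair hR hT).parabolic (ee hR hT '' (J : Set (Fin D.rank))) := by
    intro u hu
    rw [mem_PP hR hT]
    exact U_le_parabolic hR hT _ (radical_le_U hR hT _ (Subgroup.mem_subgroupOf.1 hu))
  have hN : ∀ z ∈ (pair hR hT).parabolic (ee hR hT '' (J : Set (Fin D.rank))),
      ∀ u ∈ radG D F (J : Set (Fin D.rank)), z * u * z⁻¹ ∈ radG D F (J : Set (Fin D.rank)) := by
    intro z hz u hu
    have h2 := parabolic_le_norm hR hT hT2 (Fin.val '' (J : Set (Fin D.rank))) ((mem_PP hR hT J z).1 hz)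
    exact (Subgroup.mem_normalizer_iff.1 h2 (u : GL D.Idx F)).1 (Subgroup.mem_subgroupOf.1 hu)
  have hfree : ∀ u ∈ radG D F (J : Set (Fin D.rank)), ((n : ↥(D.group F)))⁻¹ * u * (n : ↥(D.group F)) ∈
      (pair hR hT).parabolic (ee hR hT '' (T : Set (Fin D.rank))) → u = 1 := by
    intro u hu hpu
    exact hfree_chev hR hT hT2 hn hwJ h01' hTm hu hpu
  have htrans : ∀ z ∈ (pair hR hT).parabolic (ee hR hT '' (J : Set (Fin D.rank))),
      ∃ u ∈ radG D F (J : Set (Fin D.rank)), (z * (n : ↥(D.group F)))⁻¹ * (u * (n : ↥(D.group F))) ∈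
      (pair hR hT).parabolic (ee hR hT '' (T : Set (Fin D.rank))) := by
    intro z hz
    exact htrans_chev hR hT hT2 hn hJ2 h01' hsurj hz
  have hval := value_of_min (P := pair hR hT) (e := ee hR hT) (he := ee_mem hR hT) hs (fW_inj hR hT) p hx hmin hcop
    hwJ hJ2 h01' h02' hT' hRp hRJ hN hfree htrans hχ h1
  have hcl : stChar (pair hR hT) (ee hR hT) y = stChar (pair hR hT) (ee hR hT) g := by
    rw [hconj]
    exact Cfsg.Agent.Lib.Char.CompleteCor.isIrr_classFunction hχ g x⁻¹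
  have hcen : Nat.card ↥(Subgroup.centralizer ({y} : Set ↥(D.group F))) =
      Nat.card ↥(Subgroup.centralizer ({g} : Set ↥(D.group F))) := by
    refine Nat.card_congr (Equiv.subtypeEquiv (MulAut.conj x).toEquiv fun c => ?_)
    have e0 : (MulAut.conj x).toEquiv c = x * c * x⁻¹ := rfl
    rw [e0, Subgroup.mem_centralizer_singleton_iff, Subgroup.mem_centralizer_singleton_iff]
    constructor
    · intro h
      calc x * c * x⁻¹ * g = x * (c * y) * x⁻¹ := by rw [hy]; group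
        _ = x * (y * c) * x⁻¹ := by rw [h]
        _ = g * (x * c * x⁻¹) := by rw [hy]; group
    · intro h
      calc c * y = x⁻¹ * (x * c * x⁻¹ * g) * x := by rw [hy]; group
        _ = x⁻¹ * (g * (x * c * x⁻¹)) * x := by rw [h]
        _ = y * c := by rw [hy]; group
  rw [steinberg_eq hR hT, ← hcl, hval, hcen]
  rcases neg_one_pow_eq_or ℂ T.card with h | h
  · left
    rw [h, one_mul]
  · right
    rw [h, neg_one_mul]

end Cfsg.Agent.Lib.StValue.Chev
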