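import Cfsg.Agent.Lib.StChar.Cox

/-!
# Elements of minimal length in a left coset, after one letter

For `d` with no left descent in `J`, a right ascent `i` of `d` either keeps this property or else `d s_i = s_j d`
for some `j ∈ J`.  A solution of `w d = d v` with `w ∈ W_J`, `v ∈ W_K`, `d` without descents has all its letters
among those which conjugate.
-/

set_option autoImplicit false

namespace Cfsg.Agent.Lib.StValue.Cox

open Cfsg.Agent.Lib.BNPair.CoxeterExchange Cfsg.Agent.Lib.ChevOrder.Cox Cfsg.Agent.Lib.StChar.Cox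

variable {W ι : Type*} [Group W] {f : ι → W} {L : W → ℕ}

/-- The letters `i` with `d s_i = s_j d`, `j ∈ J`. -/
def Tt (f : ι → W) (J : Set ι) (d : W) : Set ι := {i | ∃ j ∈ J, d * f i = f j * d}

/-- The letters of `J` which correspond to a letter in `K`. -/
def Imt (f : ι → W) (J K : Set ι) (d : W) : Set ι := {j | j ∈ J ∧ ∃ i ∈ K, d * f i = f j * d}

theorem len_mul_f_le (hs : Setup f L) (w : W) (i : ι) : L (w * f i) ≤ L w + 1 := by
  have h1 := len_mul_le hs w (f i)
  have h2 := hs.le [i]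
  simp only [pr, List.map_cons, List.map_nil, List.prod_cons, List.prod_nil, mul_one, List.length_singleton] at h2
  omega

/-- Exchange on both sides. -/
theorem exch_lift (hs : Setup f L) {d : W} {i j : ι} (h1 : L d < L (f j * d)) (h2 : L d < L (d * f i))
    (h3 : L (f j * (d * f i)) < L (d * f i)) : f j * (d * f i) = d := by
  obtain ⟨r, hr, hrl⟩ := hs.ex d
  have hpr : pr f (r ++ [i]) = d * f i := by
    rw [pr_append, hr]
    simp [pr]
  have hlen : L (d * f i) = L d + 1 := by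
    have := len_mul_f_le hs d i
    omega
  have hl : (r ++ [i]).length = L d + 1 := by
    simp [hrl]
  have hA : L (pr f (r ++ [i])) = (r ++ [i]).length := by rw [hpr, hlen, hl]
  have hB : L (f j * pr f (r ++ [i])) < (r ++ [i]).length := by
    rw [hpr, hl, ← hlen]
    exact h3
  obtain ⟨l₁, k, l₂, hsplit, hex⟩ := hs.exch j (r ++ [i]) hA hB
  have key : r = l₁ → k = i → f j * (d * f i) = d := by
    rintro rfl rfl
    rw [← hr, ← mul_assoc, hex, mul_assoc, hs.sq, mul_one]
  rcases List.append_eq_append_iff.1 hsplit with ⟨a, ha, hb⟩ | ⟨c, hc1, hc2⟩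
  · cases a with
    | nil =>
      simp only [List.nil_append, List.cons.injEq] at hb
      exact key (by simpa using ha.symm) hb.1.symm
    | cons x a' =>
      simp only [List.cons_append, List.cons.injEq] at hb
      have : a' ++ k :: l₂ = [] := hb.2.symm
      simp at this
  · cases c with
    | nil =>
      simp only [List.nil_append, List.cons.injEq] at hc2
      exact key (by simpa using hc1) hc2.1
    | cons x c' =>
      simp only [List.cons_append, List.cons.injEq] at hc2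
      obtain ⟨rfl, rfl⟩ := hc2
      exfalso
      subst hc1
      have e4 : f j * d = pr f (l₁ ++ c') := by
        rw [← hr, pr_append, pr_cons, pr_append, ← mul_assoc, hex, mul_assoc, ← mul_assoc (f k),
          hs.sq, one_mul]
      rw [e4] at h1
      have h5 := hs.le (l₁ ++ c')
      simp only [List.length_append, List.length_cons] at h5 hrl
      omega

/-- A right ascent which destroys minimality conjugates. -/
theorem step (hs : Setup f L) {J : Set ι} {d : W} (hd : MinL f L J d) {i : ι} (hi : L d < L (d * f i))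
    (hn : ¬ MinL f L J (d * f i)) : ∃ j ∈ J, d * f i = f j * d := by
  unfold MinL at hn
  push Not at hn
  obtain ⟨j, hj, hlt⟩ := hn
  have h2 := hs.ne j (d * f i)
  have h3 : L (f j * (d * f i)) < L (d * f i) := by omega
  have h4 := exch_lift hs (hd j hj) hi h3
  refine ⟨j, hj, ?_⟩
  calc d * f i = f j * (f j * (d * f i)) := by rw [← mul_assoc, hs.sq, one_mul]
    _ = f j * d := by rw [h4]

/-- The equation `w d = d v`. -/
theorem conj_par (hs : Setup f L) {J K : Set ι} {d : W} (hd : MinL f L J d) (hd' : MinR f L K d) :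
    ∀ (n : ℕ) (w v : W), w ∈ par f J → v ∈ par f K → L v = n → w * d = d * v →
      v ∈ par f (K ∩ Tt f J d) ∧ w ∈ par f (Imt f J K d) := by
  intro n
  induction n with
  | zero =>
    intro w v _ _ hn he
    have hv1 : v = 1 := eq_one_of_len hs hn
    subst hv1
    have hw1 : w = 1 := by
      rw [mul_one] at he
      exact mul_eq_right.1 he
    subst hw1
    exact ⟨Subgroup.one_mem _, Subgroup.one_mem _⟩
  | succ n ih =>
    intro w v hw hv hn he
    have hv1 : v⁻¹ ≠ 1 := by
      intro h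
      have : v = 1 := inv_eq_one.1 h
      rw [this, len_one hs] at hn
      omega
    obtain ⟨i, hi, a', ha', ea, hl⟩ := exists_first hs (Subgroup.inv_mem _ hv) hv1
    rw [len_inv hs] at hl
    have hv' : a'⁻¹ ∈ par f K := Subgroup.inv_mem _ ha'
    have ev : v = a'⁻¹ * f i := by
      have : v = (f i * a')⁻¹ := by rw [← ea, inv_inv]
      rw [this, mul_inv_rev, inv_f hs]
    have hLv' : L a'⁻¹ = n := by rw [len_inv hs]; omega
    have h1 := hd.len_add hs hw
    have h2 := hd'.len_add hs hv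
    rw [← he] at h2
    have hLw : L w = n + 1 := by omega
    have he2 : w * (d * f i) = d * a'⁻¹ := by
      rw [← mul_assoc, he, ev, mul_assoc, mul_assoc, hs.sq, mul_one]
    have h3 := hd'.len_add hs hv'
    have hlt := hd' i hi
    have hlen := len_mul_f_le hs d i
    have hnot : ¬ MinL f L J (d * f i) := by
      intro hm
      have h4 := hm.len_add hs hw
      rw [he2, h3, hLv'] at h4
      omega
    obtain ⟨j, hj, hjd⟩ := step hs hd hlt hnot
    have hw' : w * f j ∈ par f J := Subgroup.mul_mem _ hw (f_mem_par hj)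
    have he3 : (w * f j) * d = d * a'⁻¹ := by
      rw [mul_assoc, ← hjd, he2]
    obtain ⟨h4, h5⟩ := ih (w * f j) a'⁻¹ hw' hv' hLv' he3
    constructor
    · rw [ev]
      exact Subgroup.mul_mem _ h4 (f_mem_par ⟨hi, j, hj, hjd⟩)
    · have e5 : w = (w * f j) * f j := by rw [mul_assoc, hs.sq, mul_one]
      rw [e5]
      exact Subgroup.mul_mem _ h5 (f_mem_par ⟨hj, i, hi, hjd⟩)

/-- Conjugation by the top element permutes the letters. -/
theorem top_conj (hs : Setup f L) {K : Set ι} {y : W} (hy : y ∈ par f K)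
    (h1 : ∀ i ∈ K, L (f i * y) < L y) (h2 : ∀ i ∈ K, L (y * f i) < L y) {i : ι} (hi : i ∈ K) :
    ∃ i' ∈ K, f i * y = y * f i' := by
  have hb : y⁻¹ * (f i * y) ∈ par f K :=
    Subgroup.mul_mem _ (Subgroup.inv_mem _ hy) (Subgroup.mul_mem _ (f_mem_par hi) hy)
  have h3 : ∀ j ∈ K, L (f j * y⁻¹) < L y⁻¹ := by
    intro j hj
    have e : f j * y⁻¹ = (y * f j)⁻¹ := by rw [mul_inv_rev, inv_f hs]
    rw [e, len_inv hs, len_inv hs]
    exact h2 j hj
  have h4 := len_sub hs h3 hb
  have e2 : (y⁻¹ * (f i * y))⁻¹ * y⁻¹ = (f i * y)⁻¹ := by group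
  rw [e2, len_inv hs, len_inv hs] at h4
  have h5 : L y ≤ L (f i * y) + 1 := by
    have := hs.mul_le i (f i * y)
    rwa [← mul_assoc, hs.sq, one_mul] at this
  have h6 := h1 i hi
  have hL : L (y⁻¹ * (f i * y)) = 1 := by omega
  obtain ⟨l, hl, hpr, hlen⟩ := exists_reduced_par hs hb
  rw [hL] at hlen
  match l, hlen with
  | [i'], _ =>
    refine ⟨i', hl i' (by simp), ?_⟩
    have e3 : y⁻¹ * (f i * y) = f i' := by
      rw [← hpr]
      simp [pr]
    rw [← e3]
    group

section Opp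

variable (hs : Setup f L)
include hs

/-- All elements are in `W_univ`. -/
theorem mem_par_univ (w : W) : w ∈ par f (Set.univ : Set ι) := by
  obtain ⟨l, rfl, -⟩ := hs.ex w
  exact pr_mem_par fun i _ => Set.mem_univ i

variable {J : Set ι} {wJ w0 : W}

/-- The length of `w_J⁻¹ w_0`. -/
theorem len_opp (_hJ : wJ ∈ par f J) (h0 : ∀ i, L (f i * w0) < L w0) :
    L (wJ⁻¹ * w0) + L wJ = L w0 :=
  len_sub hs (J := Set.univ) (fun i _ => h0 i) (mem_par_univ hs wJ)

/-- `w_J⁻¹ w_0` has no left descent in `J`. -/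
theorem minL_opp (hJ2 : ∀ i ∈ J, L (wJ * f i) < L wJ) (h0 : ∀ i, L (f i * w0) < L w0) :
    MinL f L J (wJ⁻¹ * w0) := by
  intro j hj
  have h1 := len_sub hs (J := Set.univ) (fun i _ => h0 i) (mem_par_univ hs wJ)
  have h2 := len_sub hs (J := Set.univ) (fun i _ => h0 i) (mem_par_univ hs (wJ * f j))
  have e : (wJ * f j)⁻¹ * w0 = f j * (wJ⁻¹ * w0) := by
    rw [mul_inv_rev, inv_f hs, mul_assoc]
  rw [e] at h2
  have h3 := hJ2 j hj
  omega

/-- Every right ascent of `w_J⁻¹ w_0` conjugates. -/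
theorem asc_opp (hJ2 : ∀ i ∈ J, L (wJ * f i) < L wJ) (hJ : wJ ∈ par f J)
    (h0 : ∀ i, L (f i * w0) < L w0) (h0' : ∀ i, L (w0 * f i) < L w0) {i : ι}
    (hi : L (wJ⁻¹ * w0) < L (wJ⁻¹ * w0 * f i)) : ∃ j ∈ J, wJ⁻¹ * w0 * f i = f j * (wJ⁻¹ * w0) := by
  refine step hs (minL_opp hs hJ2 h0) hi fun hm => ?_
  have h1 := hm.len_add hs hJ
  have e : wJ * (wJ⁻¹ * w0 * f i) = w0 * f i := by group
  rw [e] at h1
  have h2 := len_opp hs hJ h0
  have h3 := h0' i
  omega

/-- Every letter of `J` conjugates. -/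
theorem opp_surj (hJ : wJ ∈ par f J) (hJ1 : ∀ i ∈ J, L (f i * wJ) < L wJ) (hJ2 : ∀ i ∈ J, L (wJ * f i) < L wJ)
    (h0 : ∀ i, L (f i * w0) < L w0) (h0' : ∀ i, L (w0 * f i) < L w0) {j : ι} (hj : j ∈ J) :
    ∃ i, L (wJ⁻¹ * w0) < L (wJ⁻¹ * w0 * f i) ∧ wJ⁻¹ * w0 * f i = f j * (wJ⁻¹ * w0) := by
  have h1' : ∀ i ∈ J, L (f i * wJ⁻¹) < L wJ⁻¹ := by
    intro k hk
    have e : f k * wJ⁻¹ = (wJ * f k)⁻¹ := by rw [mul_inv_rev, inv_f hs]
    rw [e, len_inv hs, len_inv hs]
    exact hJ2 k hk
  have h2' : ∀ i ∈ J, L (wJ⁻¹ * f i) < L wJ⁻¹ := by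
    intro k hk
    have e : wJ⁻¹ * f k = (f k * wJ)⁻¹ := by rw [mul_inv_rev, inv_f hs]
    rw [e, len_inv hs, len_inv hs]
    exact hJ1 k hk
  obtain ⟨j', hj', e1⟩ := top_conj hs (Subgroup.inv_mem _ hJ) h1' h2' hj
  obtain ⟨i, -, e2⟩ := top_conj hs (K := Set.univ) (mem_par_univ hs w0) (fun i _ => h0 i)
    (fun i _ => h0' i) (Set.mem_univ j')
  have e3 : wJ⁻¹ * w0 * f i = f j * (wJ⁻¹ * w0) := by
    rw [mul_assoc, ← e2, ← mul_assoc, ← e1, mul_assoc]
  refine ⟨i, ?_, e3⟩
  rw [e3]
  exact minL_opp hs hJ2 h0 j hj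

/-- The only element without left descent in `J` all of whose right ascents conjugate. -/
theorem opp_unique (hJ2 : ∀ i ∈ J, L (wJ * f i) < L wJ) (hJ : wJ ∈ par f J)
    (h0 : ∀ i, L (w0 * f i) < L w0) {d : W} (hd : MinL f L J d)
    (hT : ∀ i, L d < L (d * f i) → ∃ j ∈ J, d * f i = f j * d) : d = wJ⁻¹ * w0 := by
  have h1 := hd.len_add hs hJ
  have hx : ∀ i ∈ (Set.univ : Set ι), L (wJ * d * f i) < L (wJ * d) := by
    intro i _
    rw [h1]
    by_cases hi : L d < L (d * f i)
    · obtain ⟨j, hj, e⟩ := hT i hi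
      have e2 : wJ * d * f i = (wJ * f j) * d := by
        rw [mul_assoc, e, mul_assoc]
      rw [e2]
      have h2 := len_mul_le hs (wJ * f j) d
      have h3 := hJ2 j hj
      omega
    · have h2 := ne_right hs i d
      have h3 := len_mul_le hs wJ (d * f i)
      rw [← mul_assoc] at h3
      omega
  have h2 := top_unique_right hs (mem_par_univ hs (wJ * d)) (mem_par_univ hs w0) hx (fun i _ => h0 i)
  rw [← h2]
  group

end Opp

end Cfsg.Agent.Lib.StValue.Cox
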